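import Cfsg.Agent.H809.GL3.Inner
import Cfsg.Agent.Characters.Linear
import Cfsg.Agent.H691.T3.Defs

/-!
# A character of `GL₃(q)` with fixed vectors of `U` lies in a principal series (helper809)
-/

set_option autoImplicit false

open scoped ComplexConjugate MatrixGroups
open Cfsg

namespace Cfsg.Agent.H809.GL3

open Matrix Cfsg.Agent.H139.Bruhat Cfsg.Agent.H139.FlagInner Cfsg.Agent.H139.Young
open Cfsg.Agent.OddOrderCharacters.Clifford Cfsg.Agent.Characters Cfsg.Agent.H246.Dl Cfsg.Agent.H691.T3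

variable {F : Type} [Field F]

theorem neZero_exp [Finite F] : NeZero ((Monoid.exponent Fˣ : ℕ) : ℂ) :=
  ⟨by exact_mod_cast Monoid.exponent_ne_zero_of_finite⟩

theorem dual_equiv [Finite F] : Nonempty (XX F ≃* Fˣ) := by
  have := neZero_exp (F := F)
  exact CommGroup.monoidHom_mulEquiv_of_hasEnoughRootsOfUnity Fˣ ℂ

instance finite_XX [Finite F] : Finite (XX F) := by
  obtain ⟨e⟩ := dual_equiv (F := F)
  exact Finite.of_equiv _ e.symm.toEquiv

theorem card_XX [Fintype F] : Nat.card (XX F) + 1 = Fintype.card F := by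
  classical
  obtain ⟨e⟩ := dual_equiv (F := F)
  rw [Nat.card_congr e.toEquiv, Nat.card_units, Nat.card_eq_fintype_card]
  have := Fintype.card_pos (α := F)
  omega

open Classical in
/-- orthogonality -/
theorem sum_XX [Finite F] [Fintype (XX F)] (u : Fˣ) :
    ∑ l : XX F, ((l u : ℂˣ) : ℂ) = if u = 1 then (Nat.card (XX F) : ℂ) else 0 := by
  split_ifs with h
  · rw [h]
    simp only [map_one, Units.val_one, Finset.sum_const, Finset.card_univ, nsmul_eq_mul, mul_one]
    rw [Nat.card_eq_fintype_card]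
  · have := neZero_exp (F := F)
    obtain ⟨l₀, hl₀⟩ := CommGroup.exists_apply_ne_one_of_hasEnoughRootsOfUnity Fˣ ℂ h
    have h1 : ∑ l : XX F, ((l u : ℂˣ) : ℂ) = (l₀ u : ℂ) * ∑ l : XX F, ((l u : ℂˣ) : ℂ) := by
      conv_lhs => rw [← Equiv.sum_comp (Equiv.mulLeft l₀)]
      rw [Finset.mul_sum]
      refine Finset.sum_congr rfl fun l _ => ?_
      show ((l₀ * l) u : ℂˣ).val = _
      rw [MonoidHom.mul_apply, Units.val_mul]
    by_contra h0
    apply hl₀
    apply Units.ext
    have h3 := mul_right_cancel₀ h0 ((one_mul _).trans h1)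
    exact h3.symm

open Classical in
theorem sum_lam [Finite F] [Fintype (XX F)] (b : upperTriangularGL 3 F) :
    ∑ l : Fin 3 → XX F, ((lam l b : ℂˣ) : ℂ) =
      if ∀ i, dg i b = 1 then (Nat.card (XX F) : ℂ) ^ 3 else 0 := by
  classical
  have h1 : ∑ l : Fin 3 → XX F, ((lam l b : ℂˣ) : ℂ) = ∏ i : Fin 3, ∑ x : XX F, ((x (dg i b) : ℂˣ) : ℂ) := by
    rw [Finset.prod_univ_sum, Fintype.piFinset_univ]
    refine Finset.sum_congr rfl fun l _ => ?_
    rw [lam_apply, Units.coe_prod]
  rw [h1, Finset.prod_congr rfl fun i _ => sum_XX (dg i b)]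
  by_cases h : ∀ i, dg i b = 1
  · rw [if_pos h, Finset.prod_congr rfl fun i _ => if_pos (h i), Finset.prod_const, Finset.card_univ,
      Fintype.card_fin]
  · rw [if_neg h]
    push Not at h
    obtain ⟨i, hi⟩ := h
    exact Finset.prod_eq_zero (Finset.mem_univ i) (if_neg hi)

theorem mem_UU_iff (b : upperTriangularGL 3 F) : (b : GL (Fin 3) F) ∈ UU F ↔ ∀ i, dg i b = 1 := by
  constructor
  · intro h i
    apply Units.ext
    rw [coe_dg]
    exact h.1 i
  · intro h
    refine ⟨fun i => ?_, mem_B.1 b.2⟩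
    have := congrArg Units.val (h i)
    rwa [coe_dg] at this

theorem exists_lam [Fintype F] [Fintype (GL (Fin 3) F)] {χ : GL (Fin 3) F → ℂ} (hχ : IsIrrCharacter _ χ)
    (h : ∑ᶠ u ∈ UU F, χ u ≠ 0) :
    ∃ l : Fin 3 → XX F, classInner (indFun (upperTriangularGL 3 F) fun t => (lam l t : ℂ)) χ ≠ 0 := by
  classical
  by_contra hcon
  push Not at hcon
  apply h
  have : Fintype (XX F) := Fintype.ofFinite _
  have : Fintype (upperTriangularGL 3 F) := Fintype.ofFinite _
  have hcf := Core.isIrr_isClassFunction hχ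
  have h1 : ∑ l : Fin 3 → XX F, classInner (indFun (upperTriangularGL 3 F) fun t => (lam l t : ℂ)) χ = 0 :=
    Finset.sum_eq_zero fun l _ => hcon l
  have h2 : ∀ l : Fin 3 → XX F, classInner (indFun (upperTriangularGL 3 F) fun t => (lam l t : ℂ)) χ =
      (Nat.card (upperTriangularGL 3 F) : ℂ)⁻¹ * ∑ b : upperTriangularGL 3 F, (lam l b : ℂ) * conj (χ b) := by
    intro l
    rw [classInner_indFun _ _ _ hcf, classInner_apply]
  rw [Finset.sum_congr rfl fun l _ => h2 l, ← Finset.mul_sum, Finset.sum_comm] at h1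
  have h3 : ∀ b : upperTriangularGL 3 F, ∑ l : Fin 3 → XX F, (lam l b : ℂ) * conj (χ b) =
      (Nat.card (XX F) : ℂ) ^ 3 * conj (if (b : GL (Fin 3) F) ∈ UU F then χ b else 0) := by
    intro b
    rw [← Finset.sum_mul, sum_lam]
    simp only [mem_UU_iff]
    split_ifs
    · rfl
    · rw [zero_mul, map_zero, mul_zero]
  rw [Finset.sum_congr rfl fun b _ => h3 b, ← Finset.mul_sum, ← map_sum] at h1
  have h4 : (Nat.card (upperTriangularGL 3 F) : ℂ)⁻¹ ≠ 0 := inv_ne_zero (by exact_mod_cast Nat.card_pos.ne')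
  have h5 : (Nat.card (XX F) : ℂ) ^ 3 ≠ 0 := pow_ne_zero _ (by exact_mod_cast Nat.card_pos.ne')
  have h6 := (mul_eq_zero.1 ((mul_eq_zero.1 h1).resolve_left h4)).resolve_left h5
  have h7 : ∑ b : upperTriangularGL 3 F, (if (b : GL (Fin 3) F) ∈ UU F then χ b else 0) = 0 :=
    (map_eq_zero (starRingEnd ℂ)).1 h6
  rw [finsum_mem_def, finsum_eq_sum_of_fintype]
  rw [sum_eq_sum_subgroup (upperTriangularGL 3 F)]
  · rw [← h7]
    refine Finset.sum_congr rfl fun b _ => ?_
    rw [Set.indicator_apply]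
  · intro g hg
    rw [Set.indicator_apply, if_neg]
    intro hu
    exact hg (mem_B.2 hu.2)

end Cfsg.Agent.H809.GL3
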