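import Cfsg.Agent.H809.GL3.Setup

/-!
# Principal series of `GL₃(q)`: inner products (helper809)
-/

set_option autoImplicit false

open scoped ComplexConjugate MatrixGroups
open Cfsg

namespace Cfsg.Agent.H809.GL3

open Matrix Cfsg.Agent.H139.Bruhat Cfsg.Agent.H139.FlagInner Cfsg.Agent.H139.Young
open Cfsg.Agent.OddOrderCharacters.Clifford Cfsg.Agent.Characters Cfsg.Agent.H246.Dl

variable {F : Type} [Field F] [Fintype F]

theorem lab1_inj {i j : Fin 3} (h : compLabel (fun _ : Fin 3 => 1) i = compLabel (fun _ : Fin 3 => 1) j) :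
    i = j := by
  rw [lab1] at h
  revert i j
  decide

theorem lab0_two {i : Fin 3} (h : compLabel ![2, 1, 0] i = compLabel ![2, 1, 0] 2) : i = 2 := by
  rw [lab0] at h
  revert i
  decide

/-- disjointness of the double cosets -/
theorem disj (a b : Fin 3 → ℕ) (P Q : Subgroup (GL (Fin 3) F)) (hP : P ≤ parabolicGL 3 F a)
    (hQ : Q ≤ parabolicGL 3 F b) {σ σ' : Equiv.Perm (Fin 3)}
    (h : ∃ u ∈ P, ∃ v ∈ Q, permGL F 3 σ' = u * permGL F 3 σ * v) :
    ∃ π τ : Equiv.Perm (Fin 3), (∀ i, compLabel a (π i) = compLabel a i) ∧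
      (∀ i, compLabel b (τ i) = compLabel b i) ∧ σ' = π * σ * τ := by
  obtain ⟨u, hu, v, hv, e⟩ := h
  apply exists_of_cnt_eq
  apply cnt_eq_of_D_eq (F := F)
  rw [e, D_mul a b (hP hu) (hQ hv)]

theorem inner_BB [Fintype (GL (Fin 3) F)] (l m : Fin 3 → XX F) :
    classInner (indFun (upperTriangularGL 3 F) fun t => (lam l t : ℂ))
      (indFun (upperTriangularGL 3 F) fun t => (lam m t : ℂ)) =
      (Nat.card {σ : Equiv.Perm (Fin 3) // l ∘ σ = m} : ℂ) := by
  rw [inner_lin (upperTriangularGL 3 F) (upperTriangularGL 3 F) (lam l) (lam m) (fun σ => permGL F 3 σ)]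
  · congr 1
    exact Nat.card_congr (Equiv.subtypeEquivRight fun σ => agr_BB l m σ)
  · intro y
    obtain ⟨u, hu, σ, v, hv, e⟩ := bruhat y
    exact ⟨σ, u, hu, v, hv, e⟩
  · intro σ σ' h
    obtain ⟨π, τ, hπ, hτ, e⟩ := disj (fun _ => 1) (fun _ => 1) _ _ (upper_le _) (upper_le _) h
    have h1 : π = 1 := Equiv.ext fun i => lab1_inj (hπ i)
    have h2 : τ = 1 := Equiv.ext fun i => lab1_inj (hτ i)
    rw [e, h1, h2, one_mul, mul_one]

theorem inner_BP [Fintype (GL (Fin 3) F)] (l : Fin 3 → XX F) (c : XX F) :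
    classInner (indFun (upperTriangularGL 3 F) fun t => (lam l t : ℂ))
      (indFun (PP F) fun t => ((c.comp ld : PP F →* ℂˣ) t : ℂ)) =
      (Nat.card {i : Fin 3 // ∀ k, l k = if k = i then c else 1} : ℂ) := by
  rw [inner_lin (upperTriangularGL 3 F) (PP F) (lam l) (c.comp ld) (fun i : Fin 3 => permGL F 3 (Equiv.swap i 2))]
  · congr 1
    refine Nat.card_congr (Equiv.subtypeEquivRight fun i => ?_)
    rw [agr_BP, Equiv.swap_apply_right]
  · intro y
    obtain ⟨u, hu, σ, v, hv, e⟩ := bruhat y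
    refine ⟨σ 2, u, hu, permGL F 3 (Equiv.swap (σ 2) 2 * σ) * v, mul_mem ?_ (BP hv), ?_⟩
    · apply permGL_mem
      have h2 : (Equiv.swap (σ 2) 2 * σ) 2 = 2 := by
        rw [Equiv.Perm.mul_apply, Equiv.swap_apply_left]
      generalize Equiv.swap (σ 2) 2 * σ = τ at h2
      rw [lab0]
      revert τ
      decide
    · rw [e, map_mul]
      have : permGL F 3 (Equiv.swap (σ 2) 2) * (permGL F 3 (Equiv.swap (σ 2) 2) * permGL F 3 σ) = permGL F 3 σ := by
        rw [← mul_assoc, ← map_mul, Equiv.swap_mul_self, map_one, one_mul]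
      conv_lhs => rw [← this]
      group
  · intro i j h
    obtain ⟨π, τ, hπ, hτ, e⟩ := disj (fun _ => 1) ![2, 1, 0] _ _ (upper_le _) le_rfl h
    have h1 : π = 1 := Equiv.ext fun i => lab1_inj (hπ i)
    have h2 : τ 2 = 2 := lab0_two (hτ 2)
    have h3 := congrArg (fun s : Equiv.Perm (Fin 3) => s 2) e
    simp only [h1, one_mul, Equiv.Perm.mul_apply, h2, Equiv.swap_apply_right] at h3
    exact h3.symm

theorem inner_PP [Fintype (GL (Fin 3) F)] (c : XX F) :
    classInner (indFun (PP F) fun t => ((c.comp ld : PP F →* ℂˣ) t : ℂ))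
      (indFun (PP F) fun t => ((c.comp ld : PP F →* ℂˣ) t : ℂ)) =
      (Nat.card {b : Bool // b = false ∨ c = 1} : ℂ) := by
  rw [inner_lin (PP F) (PP F) (c.comp ld) (c.comp ld) (fun b : Bool => permGL F 3 (if b then Equiv.swap 0 2 else 1))]
  · congr 1
    refine Nat.card_congr (Equiv.subtypeEquivRight fun b => ?_)
    rw [agr_PP]
    cases b
    · simp
    · simp
  · intro y
    obtain ⟨u, hu, σ, v, hv, e⟩ := bruhat y
    have key : ∀ σ : Equiv.Perm (Fin 3), ∃ b : Bool, ∃ π τ : Equiv.Perm (Fin 3),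
        (∀ i, (![0, 0, 1] : Fin 3 → ℕ) (π i) = (![0, 0, 1] : Fin 3 → ℕ) i) ∧
        (∀ i, (![0, 0, 1] : Fin 3 → ℕ) (τ i) = (![0, 0, 1] : Fin 3 → ℕ) i) ∧
        σ = π * (if b then Equiv.swap 0 2 else 1) * τ := by decide
    obtain ⟨b, π, τ, hπ, hτ, e1⟩ := key σ
    refine ⟨b, u * permGL F 3 π, mul_mem (BP hu) (permGL_mem _ (by rw [lab0]; exact hπ)), permGL F 3 τ * v,
      mul_mem (permGL_mem _ (by rw [lab0]; exact hτ)) (BP hv), ?_⟩
    rw [e, e1, map_mul, map_mul]
    group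
  · intro i j h
    obtain ⟨π, τ, hπ, hτ, e⟩ := disj ![2, 1, 0] ![2, 1, 0] _ _ le_rfl le_rfl h
    have h1 : π 2 = 2 := lab0_two (hπ 2)
    have h2 : τ 2 = 2 := lab0_two (hτ 2)
    clear h hπ hτ
    have key : ∀ (i j : Bool) (π τ : Equiv.Perm (Fin 3)),
        (if j = true then Equiv.swap 0 2 else 1) = (π * if i = true then Equiv.swap 0 2 else 1) * τ →
        π 2 = 2 → τ 2 = 2 → i = j := by decide
    exact key i j π τ e h1 h2

end Cfsg.Agent.H809.GL3
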