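import Cfsg.Agent.H809.GL3.Exists
import Cfsg.Agent.S2420

/-!
# The irreducible characters of `GL₃(q)` with fixed vectors of `U` (helper809)
-/

set_option autoImplicit false
set_option linter.unusedSectionVars false

open scoped ComplexConjugate MatrixGroups
open Cfsg

namespace Cfsg.Agent.H809.GL3

open Matrix Cfsg.Agent.H139.Bruhat Cfsg.Agent.H139.FlagInner Cfsg.Agent.H139.Young
open Cfsg.Agent.OddOrderCharacters.Clifford Cfsg.Agent.Characters Cfsg.Agent.H246.Dl Cfsg.Agent.H691.T3

variable {F : Type} [Field F] [Fintype F] [Fintype (GL (Fin 3) F)]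

/-- the principal series -/
noncomputable def Ps (l : Fin 3 → XX F) : GL (Fin 3) F → ℂ := indFun (upperTriangularGL 3 F) fun t => (lam l t : ℂ)

/-- the characters induced from the stabiliser of a plane -/
noncomputable def Pl (c : XX F) : GL (Fin 3) F → ℂ := indFun (PP F) fun t => ((c.comp ld : PP F →* ℂˣ) t : ℂ)

theorem char_Ps (l : Fin 3 → XX F) : IsCharacter _ (Ps l) :=
  Cfsg.Agent.S0148.result _ _ (Characters.Linear.isCharacter_hom _)

theorem char_Pl (c : XX F) : IsCharacter _ (Pl c) :=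
  Cfsg.Agent.S0148.result _ _ (Characters.Linear.isCharacter_hom _)

/-! ### degrees -/

theorem B_eq : upperTriangularGL 3 F = parabolicGL 3 F (fun _ => 1) := by
  apply le_antisymm (upper_le _)
  intro g hg
  rw [mem_B]
  intro i j hij
  have h0 : (g : Matrix (Fin 3) (Fin 3) F).BlockTriangular (compLabel fun _ => 1) := hg
  rw [lab1] at h0
  apply h0
  revert i j
  decide

theorem index_B : (upperTriangularGL 3 F).index = (Fintype.card F + 1) * (Fintype.card F ^ 2 + Fintype.card F + 1) := by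
  have h := Cfsg.Agent.S2420.result (F := F) rfl (n := 3) (fun _ => 1) rfl
  rw [B_eq, Subgroup.index]
  simp only [Fin.prod_univ_three, Finset.prod_range_succ, Finset.sum_range_succ, Finset.range_zero,
    Finset.sum_empty, Finset.prod_empty, pow_zero, pow_one, zero_add, one_mul, mul_one] at h
  rw [h]
  ring

theorem index_PP : (PP F).index = Fintype.card F ^ 2 + Fintype.card F + 1 := by
  have h := Cfsg.Agent.S2420.result (F := F) rfl (n := 3) ![2, 1, 0] rfl
  rw [Subgroup.index]
  simp only [Fin.prod_univ_three, Matrix.cons_val_zero, Matrix.cons_val_one, Matrix.cons_val, Finset.prod_range_succ,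
    Finset.sum_range_succ, Finset.range_zero,
    Finset.sum_empty, Finset.prod_empty, pow_zero, pow_one, zero_add, one_mul, mul_one] at h
  have h1 : 0 < 1 + Fintype.card F := by omega
  apply Nat.eq_of_mul_eq_mul_right h1
  rw [h]
  ring

theorem Ps_one (l : Fin 3 → XX F) :
    Ps l 1 = (((Fintype.card F + 1) * (Fintype.card F ^ 2 + Fintype.card F + 1) : ℕ) : ℂ) := by
  unfold Ps
  rw [Cfsg.Agent.H53.HC.indFun_one, index_B, map_one, Units.val_one, mul_one]

theorem Pl_one (c : XX F) : Pl c 1 = ((Fintype.card F ^ 2 + Fintype.card F + 1 : ℕ) : ℂ) := by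
  unfold Pl
  rw [Cfsg.Agent.H53.HC.indFun_one, index_PP, map_one, Units.val_one, mul_one]

theorem charDegree_of {χ : GL (Fin 3) F → ℂ} {n : ℕ} (h : χ 1 = n) : charDegree χ = n := by
  unfold charDegree
  rw [h, Complex.natCast_re, Nat.floor_natCast]

/-! ### permuting the characters -/

theorem inner_Ps (l m : Fin 3 → XX F) :
    classInner (Ps l) (Ps m) = (Nat.card {σ : Equiv.Perm (Fin 3) // l ∘ σ = m} : ℂ) := inner_BB l m

theorem Ps_perm (l : Fin 3 → XX F) (σ : Equiv.Perm (Fin 3)) : Ps (l ∘ σ) = Ps l := by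
  have h1 : ∀ a b : Fin 3 → XX F, (∃ ρ : Equiv.Perm (Fin 3), a = l ∘ ρ) → (∃ ρ : Equiv.Perm (Fin 3), b = l ∘ ρ) →
      classInner (Ps a) (Ps b) = (Nat.card {σ : Equiv.Perm (Fin 3) // l ∘ σ = l} : ℂ) := by
    rintro _ _ ⟨ρ, rfl⟩ ⟨ρ', rfl⟩
    rw [inner_Ps]
    congr 1
    refine Nat.card_congr ((Equiv.mulRight ρ'⁻¹).trans (Equiv.mulLeft ρ) |>.subtypeEquiv fun τ => ?_)
    show (l ∘ ρ) ∘ τ = l ∘ ρ' ↔ l ∘ (ρ * (τ * ρ'⁻¹) : Equiv.Perm (Fin 3)) = l
    constructor
    · intro h
      funext i
      have := congrFun h (ρ'⁻¹ i)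
      simpa using this
    · intro h
      funext i
      have := congrFun h (ρ' i)
      simpa using this
  have h2 : classInner (Ps (l ∘ σ) - Ps l) (Ps (l ∘ σ) - Ps l) = 0 := by
    rw [Core.classInner_sub_left, Core.classInner_sub_right, Core.classInner_sub_right,
      h1 (l ∘ σ) (l ∘ σ) ⟨σ, rfl⟩ ⟨σ, rfl⟩, h1 (l ∘ σ) l ⟨σ, rfl⟩ ⟨1, rfl⟩, h1 l (l ∘ σ) ⟨1, rfl⟩ ⟨σ, rfl⟩,
      h1 l l ⟨1, rfl⟩ ⟨1, rfl⟩]
    ring
  exact sub_eq_zero.1 (Core.classInner_self_eq_zero h2)

/-! ### twisting -/

/-- `a ∘ det` -/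
noncomputable def dt (a : XX F) : GL (Fin 3) F →* ℂˣ := a.comp Matrix.GeneralLinearGroup.det

omit [Fintype F] [Fintype (GL (Fin 3) F)] in
theorem lam_smul (a : XX F) (l : Fin 3 → XX F) (b : upperTriangularGL 3 F) :
    lam (fun i => a * l i) b = dt a b * lam l b := by
  rw [lam_apply, lam_apply]
  simp only [MonoidHom.mul_apply, Finset.prod_mul_distrib]
  congr 1
  rw [← map_prod]
  show _ = a (Matrix.GeneralLinearGroup.det (b : GL (Fin 3) F))
  congr 1
  apply Units.ext
  rw [Units.coe_prod, Matrix.GeneralLinearGroup.val_det_apply]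
  have h1 : ((b : GL (Fin 3) F) : Matrix (Fin 3) (Fin 3) F).IsUpperTriangular := b.2
  rw [Matrix.det_of_isUpperTriangular h1]
  rfl

theorem Ps_smul (a : XX F) (l : Fin 3 → XX F) (g : GL (Fin 3) F) :
    Ps (fun i => a * l i) g = (dt a g : ℂ) * Ps l g := by
  unfold Ps
  rw [indFun_apply, indFun_apply, mul_left_comm]
  congr 1
  rw [Finset.mul_sum]
  refine Finset.sum_congr rfl fun x _ => ?_
  by_cases h : x⁻¹ * g * x ∈ upperTriangularGL 3 F
  · rw [ext_apply_mem _ _ _ h, ext_apply_mem _ _ _ h, lam_smul, Units.val_mul]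
    congr 2
    show (dt a) (x⁻¹ * g * x) = _
    rw [map_mul, map_mul, map_inv, mul_comm, mul_inv_cancel_left]
  · rw [ext_apply_not_mem _ _ _ h, ext_apply_not_mem _ _ _ h, mul_zero]

omit [Fintype F] in
theorem inner_dt (a : XX F) (φ ψ : GL (Fin 3) F → ℂ) :
    classInner (fun g => (dt a g : ℂ) * φ g) (fun g => (dt a g : ℂ) * ψ g) = classInner φ ψ := by
  rw [classInner_apply, classInner_apply]
  congr 1
  refine Finset.sum_congr rfl fun g _ => ?_
  have h := CharactersDeep.MackeyLinear.mul_conj_hom (dt a) g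
  rw [map_mul]
  calc (dt a g : ℂ) * φ g * (conj (dt a g : ℂ) * conj (ψ g)) =
      ((dt a g : ℂ) * conj (dt a g : ℂ)) * (φ g * conj (ψ g)) := by ring
    _ = _ := by rw [h, one_mul]

theorem under_smul {a : XX F} {l : Fin 3 → XX F} {χ : GL (Fin 3) F → ℂ} :
    classInner (Ps fun i => a * l i) (fun g => (dt a g : ℂ) * χ g) = classInner (Ps l) χ := by
  rw [← inner_dt a (Ps l) χ]
  congr 1
  funext g
  exact Ps_smul a l g

omit [Fintype F] in
theorem isIrr_dt (a : XX F) {χ : GL (Fin 3) F → ℂ} (hχ : IsIrrCharacter _ χ) :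
    IsIrrCharacter _ (fun g => (dt a g : ℂ) * χ g) := by
  apply Core.isIrr_of_classInner_self
  · exact Core.isCharacter_mul (Characters.Linear.isCharacter_hom (dt a)) (Core.isIrr_isCharacter hχ)
  · rw [inner_dt]
    exact Core.classInner_irr_self hχ

/-! ### degrees of the constituents -/

/-- a constituent of a sum of two irreducible characters -/
theorem eq_or {α β χ : GL (Fin 3) F → ℂ} (hα : IsIrrCharacter _ α) (hβ : IsIrrCharacter _ β)
    (hχ : IsIrrCharacter _ χ) (h : classInner (α + β) χ ≠ 0) : χ = α ∨ χ = β := by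
  by_contra hcon
  push Not at hcon
  apply h
  rw [Core.classInner_add_left, Core.classInner_irr_ne hα hχ hcon.1.symm, Core.classInner_irr_ne hβ hχ hcon.2.symm,
    add_zero]

theorem inner_mix (c : XX F) : classInner (Ps ![1, 1, c]) (Pl c) =
    (Nat.card {i : Fin 3 // ∀ k, (![1, 1, c] : Fin 3 → XX F) k = if k = i then c else 1} : ℂ) :=
  inner_BP ![1, 1, c] c

theorem inner_Pl (c : XX F) : classInner (Pl c) (Pl c) = (Nat.card {b : Bool // b = false ∨ c = 1} : ℂ) :=
  inner_PP c

/-- the case of two different characters -/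
theorem degree_ne {c : XX F} (hc : c ≠ 1) {χ : GL (Fin 3) F → ℂ} (hχ : IsIrrCharacter _ χ)
    (h : classInner (Ps ![1, 1, c]) χ ≠ 0) :
    charDegree χ = Fintype.card F ^ 2 + Fintype.card F + 1 ∨
      charDegree χ = Fintype.card F * (Fintype.card F ^ 2 + Fintype.card F + 1) := by
  have h1 : classInner (Pl c) (Pl c) = 1 := by
    rw [inner_Pl]
    have : Nat.card {b : Bool // b = false ∨ c = 1} = 1 := by
      rw [Nat.card_eq_one_iff_unique]
      refine ⟨⟨?_⟩, ⟨false, Or.inl rfl⟩⟩
      rintro ⟨a, ha⟩ ⟨b, hb⟩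
      exact Subtype.ext ((ha.resolve_right hc).trans (hb.resolve_right hc).symm)
    rw [this, Nat.cast_one]
  have h2 : classInner (Ps ![1, 1, c]) (Pl c) = 1 := by
    rw [inner_mix]
    have : Nat.card {i : Fin 3 // ∀ k, (![1, 1, c] : Fin 3 → XX F) k = if k = i then c else 1} = 1 := by
      rw [Nat.card_eq_one_iff_unique]
      have key : ∀ i : Fin 3, (∀ k, (![1, 1, c] : Fin 3 → XX F) k = if k = i then c else 1) → i = 2 := by
        intro i hi
        by_contra hne
        have := hi 2
        rw [if_neg (Ne.symm hne)] at this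
        exact hc this
      refine ⟨⟨?_⟩, ⟨2, ?_⟩⟩
      · rintro ⟨a, ha⟩ ⟨b, hb⟩
        exact Subtype.ext ((key a ha).trans (key b hb).symm)
      · intro k
        fin_cases k
        · rfl
        · rfl
        · rfl
    rw [this, Nat.cast_one]
  have h3 : classInner (Ps ![1, 1, c]) (Ps ![1, 1, c]) = 2 := by
    rw [inner_Ps]
    have e1 : ∀ σ : Equiv.Perm (Fin 3), (![1, 1, c] : Fin 3 → XX F) ∘ σ = ![1, 1, c] ↔ σ 2 = 2 := by
      intro σ
      have e0 : ∀ i : Fin 3, (![1, 1, c] : Fin 3 → XX F) i = if i = 2 then c else 1 := by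
        intro i
        fin_cases i <;> rfl
      constructor
      · intro h
        have := congrFun h 2
        rw [Function.comp_apply, e0, e0, if_pos rfl] at this
        by_contra hne
        rw [if_neg hne] at this
        exact hc this.symm
      · intro h
        funext i
        rw [Function.comp_apply, e0, e0]
        have : σ i = 2 ↔ i = 2 := by
          constructor
          · intro h'
            exact σ.injective (h'.trans h.symm)
          · rintro rfl
            exact h
        simp only [this]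
    rw [Nat.card_congr (Equiv.subtypeEquivRight e1), Nat.card_eq_fintype_card]
    have : Fintype.card {σ : Equiv.Perm (Fin 3) // σ 2 = 2} = 2 := by decide
    rw [this]
    norm_num
  have hpl : IsIrrCharacter _ (Pl c) := Core.isIrr_of_classInner_self (char_Pl c) h1
  have hch := isCharacter_sub_irr (char_Ps ![1, 1, c]) hpl (by rw [h2]; exact one_ne_zero)
  have h2' : classInner (Pl c) (Ps ![1, 1, c]) = 1 := by
    rw [← Core.classInner_conj_symm, h2, map_one]
  have hst : IsIrrCharacter _ (Ps ![1, 1, c] - Pl c) := by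
    apply Core.isIrr_of_classInner_self hch
    rw [Core.classInner_sub_left, Core.classInner_sub_right, Core.classInner_sub_right, h1, h2, h2', h3]
    norm_num
  have e : Ps ![1, 1, c] = Pl c + (Ps ![1, 1, c] - Pl c) := by abel
  rw [e] at h
  rcases eq_or hpl hst hχ h with rfl | rfl
  · left
    exact charDegree_of (Pl_one c)
  · right
    apply charDegree_of
    rw [Pi.sub_apply, Ps_one, Pl_one]
    push_cast
    ring

/-- the unipotent case -/
theorem degree_one {χ : GL (Fin 3) F → ℂ} (hχ : IsIrrCharacter _ χ)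
    (h : classInner (Ps ![1, 1, 1]) χ ≠ 0) :
    charDegree χ = 1 ∨ charDegree χ = Fintype.card F ^ 2 + Fintype.card F ∨ charDegree χ = Fintype.card F ^ 3 := by
  have h1 : classInner (Pl (1 : XX F)) (Pl 1) = 2 := by
    rw [inner_Pl]
    have : Nat.card {b : Bool // b = false ∨ (1 : XX F) = 1} = 2 := by
      have e : {b : Bool // b = false ∨ (1 : XX F) = 1} ≃ Bool :=
        { toFun := fun b => b.1
          invFun := fun b => ⟨b, Or.inr rfl⟩
          left_inv := fun b => rfl
          right_inv := fun b => rfl }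
      rw [Nat.card_congr e, Nat.card_eq_fintype_card, Fintype.card_bool]
    rw [this]
    norm_num
  have h2 : classInner (Ps ![1, 1, 1]) (Pl (1 : XX F)) = 3 := by
    rw [inner_mix]
    have : Nat.card {i : Fin 3 // ∀ k, (![1, 1, 1] : Fin 3 → XX F) k = if k = i then 1 else 1} = 3 := by
      have e : {i : Fin 3 // ∀ k, (![1, 1, 1] : Fin 3 → XX F) k = if k = i then 1 else 1} ≃ Fin 3 :=
        { toFun := fun b => b.1
          invFun := fun b => ⟨b, fun k => by
            rw [ite_self]
            fin_cases k <;> rfl⟩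
          left_inv := fun b => rfl
          right_inv := fun b => rfl }
      rw [Nat.card_congr e, Nat.card_eq_fintype_card, Fintype.card_fin]
    rw [this]
    norm_num
  have h3 : classInner (Ps ![1, 1, 1]) (Ps (![1, 1, 1] : Fin 3 → XX F)) = 6 := by
    rw [inner_Ps]
    have e1 : ∀ σ : Equiv.Perm (Fin 3), (![1, 1, 1] : Fin 3 → XX F) ∘ σ = ![1, 1, 1] ↔ True := by
      intro σ
      have e0 : ∀ i : Fin 3, (![1, 1, 1] : Fin 3 → XX F) i = 1 := by
        intro i
        fin_cases i <;> rfl
      rw [iff_true]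
      funext i
      rw [Function.comp_apply, e0, e0]
    rw [Nat.card_congr (Equiv.subtypeEquivRight e1), Nat.card_congr (Equiv.subtypeUnivEquiv fun _ => trivial),
      Nat.card_eq_fintype_card]
    have : Fintype.card (Equiv.Perm (Fin 3)) = 6 := by decide
    rw [this]
    norm_num
  have hone : ∀ (T : Subgroup (GL (Fin 3) F)) (f : T →* ℂˣ), f = 1 →
      classInner (indFun T fun t => (f t : ℂ)) (1 : GL (Fin 3) F → ℂ) = 1 := by
    rintro T f rfl
    have : Fintype T := Fintype.ofFinite T
    rw [classInner_indFun T _ _ (Core.isIrr_isClassFunction Core.isIrr_one)]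
    exact Core.classInner_irr_self (Core.isIrr_one (G := T))
  have h4 : classInner (Ps (![1, 1, 1] : Fin 3 → XX F)) 1 = 1 := by
    apply hone
    apply MonoidHom.ext
    intro b
    rw [lam_apply, Fin.prod_univ_three]
    show (1 : ℂˣ) * 1 * 1 = 1
    rw [mul_one, mul_one]
  have h5 : classInner (Pl (1 : XX F)) 1 = 1 := by
    apply hone
    rfl
  have h1one : IsIrrCharacter (GL (Fin 3) F) (1 : GL (Fin 3) F → ℂ) := Core.isIrr_one
  have h11 := Core.classInner_irr_self h1one
  have h5' : classInner 1 (Pl (1 : XX F)) = 1 := by rw [← Core.classInner_conj_symm, h5, map_one]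
  have h4' : classInner 1 (Ps (![1, 1, 1] : Fin 3 → XX F)) = 1 := by rw [← Core.classInner_conj_symm, h4, map_one]
  -- `θ`
  obtain ⟨θ, hθ⟩ : ∃ θ : GL (Fin 3) F → ℂ, θ = Pl 1 - 1 := ⟨_, rfl⟩
  have hθc : IsCharacter _ θ := by
    rw [hθ]
    exact isCharacter_sub_irr (char_Pl 1) h1one (by rw [h5]; exact one_ne_zero)
  have hθi : IsIrrCharacter _ θ := by
    apply Core.isIrr_of_classInner_self hθc
    rw [hθ, Core.classInner_sub_left, Core.classInner_sub_right, Core.classInner_sub_right, h1, h5, h5', h11]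
    norm_num
  have h6 : classInner (Ps (![1, 1, 1] : Fin 3 → XX F)) θ = 2 := by
    rw [hθ, Core.classInner_sub_right, h2, h4]
    norm_num
  have h6' : classInner θ (Ps (![1, 1, 1] : Fin 3 → XX F)) = 2 := by
    rw [← Core.classInner_conj_symm, h6, Complex.conj_ofNat]
  have h7 : classInner 1 θ = 0 := by
    rw [hθ, Core.classInner_sub_right, h5', h11, sub_self]
  have h7' : classInner θ 1 = 0 := by
    rw [← Core.classInner_conj_symm, h7, map_zero]
  have hθθ := Core.classInner_irr_self hθi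
  have hc1 : IsCharacter _ (Ps (![1, 1, 1] : Fin 3 → XX F) - 1) :=
    isCharacter_sub_irr (char_Ps _) h1one (by rw [h4]; exact one_ne_zero)
  have hc2 : IsCharacter _ (Ps (![1, 1, 1] : Fin 3 → XX F) - 1 - θ) := by
    apply isCharacter_sub_irr hc1 hθi
    rw [Core.classInner_sub_left, h6, h7]
    norm_num
  have hc3 : IsCharacter _ (Ps (![1, 1, 1] : Fin 3 → XX F) - 1 - θ - θ) := by
    apply isCharacter_sub_irr hc2 hθi
    rw [Core.classInner_sub_left, Core.classInner_sub_left, h6, h7, hθθ]
    norm_num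
  have hst : IsIrrCharacter _ (Ps (![1, 1, 1] : Fin 3 → XX F) - 1 - θ - θ) := by
    apply Core.isIrr_of_classInner_self hc3
    simp only [Core.classInner_sub_left, Core.classInner_sub_right, h3, h4, h4', h6, h6', h7, h7', h11, hθθ]
    norm_num
  have hdθ : θ 1 = ((Fintype.card F ^ 2 + Fintype.card F : ℕ) : ℂ) := by
    rw [hθ, Pi.sub_apply, Pl_one, Pi.one_apply]
    push_cast
    ring
  have e : Ps (![1, 1, 1] : Fin 3 → XX F) = 1 + (θ + (θ + (Ps ![1, 1, 1] - 1 - θ - θ))) := by abel
  by_cases c1 : χ = 1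
  · left
    rw [c1]
    apply charDegree_of
    rw [Pi.one_apply, Nat.cast_one]
  right
  by_cases c2 : χ = θ
  · left
    rw [c2]
    exact charDegree_of hdθ
  right
  have c3 : χ = Ps (![1, 1, 1] : Fin 3 → XX F) - 1 - θ - θ := by
    by_contra c3
    apply h
    rw [e, Core.classInner_add_left, Core.classInner_add_left, Core.classInner_add_left,
      Core.classInner_irr_ne h1one hχ (Ne.symm c1), Core.classInner_irr_ne hθi hχ (Ne.symm c2),
      Core.classInner_irr_ne hst hχ (Ne.symm c3)]
    norm_num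
  rw [c3]
  apply charDegree_of
  rw [Pi.sub_apply, Pi.sub_apply, Pi.sub_apply, Ps_one, hdθ, Pi.one_apply]
  push_cast
  ring

/-! ### stability -/

/-- the principal series over an irreducible character -/
theorem exists_perm_of_under {l m : Fin 3 → XX F} {χ : GL (Fin 3) F → ℂ} (hχ : IsIrrCharacter _ χ)
    (h1 : classInner (Ps l) χ ≠ 0) (h2 : classInner (Ps m) χ ≠ 0) : ∃ σ : Equiv.Perm (Fin 3), l ∘ σ = m := by
  have h := classInner_ne_zero_of_common (char_Ps l) (char_Ps m) hχ h1 h2
  rw [inner_Ps] at h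
  have h3 : Nat.card {σ : Equiv.Perm (Fin 3) // l ∘ σ = m} ≠ 0 := by exact_mod_cast h
  obtain ⟨⟨σ, hσ⟩⟩ := (Nat.card_ne_zero.1 h3).1
  exact ⟨σ, hσ⟩

theorem not_stab {l : Fin 3 → XX F} {χ : GL (Fin 3) F → ℂ} (hχ : IsIrrCharacter _ χ)
    (h : classInner (Ps l) χ ≠ 0) {i j : Fin 3} (hij : i ≠ j) (hl : l i = l j) : ¬ Stab χ := by
  rintro ⟨a, ha, hst⟩
  apply ha
  have h1 : (fun g => (dt a g : ℂ) * χ g) = χ := funext hst
  have h2 : classInner (Ps fun i => a * l i) χ ≠ 0 := by
    rw [← h1, under_smul]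
    exact h
  obtain ⟨σ, hσ⟩ := exists_perm_of_under hχ h h2
  have h3 : ∀ k, l (σ k) = a * l k := fun k => congrFun hσ k
  -- `{i, j}` and `{σ i, σ j}` meet
  have h4 : ∃ x ∈ ({i, j} : Finset (Fin 3)), ∃ y ∈ ({i, j} : Finset (Fin 3)), σ x = y := by
    clear h3 hσ hl h2
    revert i j σ
    decide
  obtain ⟨x, hx, y, hy, e⟩ := h4
  have hlx : ∀ x ∈ ({i, j} : Finset (Fin 3)), l x = l i := by
    intro x hx
    rw [Finset.mem_insert, Finset.mem_singleton] at hx
    rcases hx with rfl | rfl
    · rfl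
    · exact hl.symm
  have h5 := h3 x
  rw [e, hlx x hx, hlx y hy] at h5
  exact (right_eq_mul (M := XX F)).1 h5

/-- non-injective: normal form -/
theorem exists_normal {l : Fin 3 → XX F} {i j : Fin 3} (hij : i ≠ j) (hl : l i = l j) :
    ∃ (σ : Equiv.Perm (Fin 3)) (a c : XX F), l ∘ σ = fun k => a * (![1, 1, c] : Fin 3 → XX F) k := by
  have h1 : ∀ i j : Fin 3, i ≠ j → ∃ σ : Equiv.Perm (Fin 3), σ 0 = i ∧ σ 1 = j := by decide
  obtain ⟨σ, h0, h1⟩ := h1 i j hij
  refine ⟨σ, l i, (l i)⁻¹ * l (σ 2), ?_⟩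
  funext k
  fin_cases k
  · show l (σ 0) = l i * 1
    rw [h0]
    exact (mul_one (l i)).symm
  · show l (σ 1) = l i * 1
    rw [h1, ← hl]
    exact (mul_one (l i)).symm
  · show l (σ 2) = l i * ((l i)⁻¹ * l (σ 2))
    exact (mul_inv_cancel_left (l i) (l (σ 2))).symm

end Cfsg.Agent.H809.GL3

namespace Cfsg.Agent.H809.GL3

open Matrix Cfsg.Agent.Characters Cfsg.Agent.H246.Dl Cfsg.Agent.H691.T3

theorem gl3_U {F : Type} [Field F] [Fintype F] {χ : GL (Fin 3) F → ℂ} (hχ : IsIrrCharacter (GL (Fin 3) F) χ)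
    (h : ∑ᶠ u ∈ UU F, χ u ≠ 0) :
    (¬ Stab χ ∧ (charDegree χ = 1 ∨ charDegree χ = Fintype.card F ^ 2 + Fintype.card F ∨ charDegree χ = Fintype.card F ^ 3 ∨
      (3 ≤ Fintype.card F ∧ (charDegree χ = Fintype.card F ^ 2 + Fintype.card F + 1 ∨
        charDegree χ = Fintype.card F * (Fintype.card F ^ 2 + Fintype.card F + 1))))) ∨
    (charDegree χ = (Fintype.card F + 1) * (Fintype.card F ^ 2 + Fintype.card F + 1) ∧ 4 ≤ Fintype.card F ∧
      (Fintype.card F = 4 → Stab χ)) := by
  classical
  have : Fintype (GL (Fin 3) F) := Fintype.ofFinite _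
  obtain ⟨l, hl⟩ := exists_lam hχ h
  change classInner (Ps l) χ ≠ 0 at hl
  have hcX := card_XX (F := F)
  by_cases hinj : Function.Injective l
  · right
    have h1 : classInner (Ps l) (Ps l) = 1 := by
      rw [inner_Ps]
      have : Nat.card {σ : Equiv.Perm (Fin 3) // l ∘ σ = l} = 1 := by
        rw [Nat.card_eq_one_iff_unique]
        refine ⟨⟨?_⟩, ⟨1, rfl⟩⟩
        rintro ⟨a, ha⟩ ⟨b, hb⟩
        apply Subtype.ext
        apply Equiv.ext
        intro i
        exact hinj ((congrFun ha i).trans (congrFun hb i).symm)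
      rw [this, Nat.cast_one]
    have hirr : IsIrrCharacter _ (Ps l) := Core.isIrr_of_classInner_self (char_Ps l) h1
    have e : χ = Ps l := by
      by_contra hne
      exact hl (Core.classInner_irr_ne hirr hχ (Ne.symm hne))
    have h3 : 3 ≤ Nat.card (XX F) := by
      have := Nat.card_le_card_of_injective l hinj
      rwa [Nat.card_eq_fintype_card, Fintype.card_fin] at this
    refine ⟨?_, by omega, ?_⟩
    · rw [e]
      exact charDegree_of (Ps_one l)
    · intro h4
      have h5 : Nat.card (XX F) = 3 := by omega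
      -- a nontrivial character
      have hnt : Nontrivial (XX F) := by
        rw [← Finite.one_lt_card_iff_nontrivial]
        omega
      obtain ⟨a, ha⟩ := exists_ne (1 : XX F)
      refine ⟨a, ha, ?_⟩
      -- `l` is bijective
      have hbij : Function.Bijective l := by
        apply hinj.bijective_of_nat_card_le
        rw [h5, Nat.card_eq_fintype_card, Fintype.card_fin]
      let e' : Fin 3 ≃ XX F := Equiv.ofBijective l hbij
      let σ : Equiv.Perm (Fin 3) := (e'.trans (Equiv.mulLeft a)).trans e'.symm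
      have hσ : l ∘ σ = fun k => a * l k := by
        funext k
        exact e'.apply_symm_apply _
      intro g
      have h6 := Ps_smul a l g
      rw [← hσ, Ps_perm, ← e] at h6
      exact h6.symm
  · left
    unfold Function.Injective at hinj
    push Not at hinj
    obtain ⟨i, j, hij, hne⟩ := hinj
    refine ⟨not_stab hχ hl hne hij, ?_⟩
    obtain ⟨σ, a, c, hσ⟩ := exists_normal hne hij
    -- twist
    have h1 : classInner (Ps ![1, 1, c]) (fun g => (dt a⁻¹ g : ℂ) * χ g) ≠ 0 := by
      have h2 : classInner (Ps (fun k => a⁻¹ * (l ∘ σ) k)) (fun g => (dt a⁻¹ g : ℂ) * χ g) ≠ 0 := by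
        rw [under_smul, Ps_perm]
        exact hl
      have h3 : (fun k => a⁻¹ * (l ∘ σ) k) = ![1, 1, c] := by
        funext k
        rw [hσ]
        exact inv_mul_cancel_left a _
      rwa [h3] at h2
    have h2 := isIrr_dt a⁻¹ hχ
    have hdeg : charDegree (fun g => (dt a⁻¹ g : ℂ) * χ g) = charDegree χ := by
      unfold charDegree
      simp only [map_one, Units.val_one, one_mul]
    by_cases hc : c = 1
    · rw [hc] at h1
      have h3 := degree_one h2 h1
      rw [hdeg] at h3
      rcases h3 with h3 | h3 | h3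
      · exact Or.inl h3
      · exact Or.inr (Or.inl h3)
      · exact Or.inr (Or.inr (Or.inl h3))
    · have h3 := degree_ne hc h2 h1
      rw [hdeg] at h3
      refine Or.inr (Or.inr (Or.inr ⟨?_, h3⟩))
      have h4 : 1 < Nat.card (XX F) := by
        rw [Finite.one_lt_card_iff_nontrivial]
        exact ⟨⟨c, 1, hc⟩⟩
      omega

end Cfsg.Agent.H809.GL3
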