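import Cfsg.Agent.H809.GL3.Mack
import Cfsg.Agent.H139.FlagInner

/-!
# Principal series of `GL₃(q)`: inner products (helper809)
-/

set_option autoImplicit false

open scoped ComplexConjugate MatrixGroups
open Cfsg

namespace Cfsg.Agent.H809.GL3

open Matrix Cfsg.Agent.H139.Bruhat Cfsg.Agent.H139.FlagInner Cfsg.Agent.H139.Young
open Cfsg.Agent.OddOrderCharacters.Clifford Cfsg.Agent.Characters Cfsg.Agent.H246.Dl

variable {F : Type} [Field F]

/-- The dual group of `F^*`. -/
abbrev XX (F : Type) [Field F] : Type := Fˣ →* ℂˣ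

theorem mem_B {g : GL (Fin 3) F} : g ∈ upperTriangularGL 3 F ↔ ∀ i j : Fin 3, j < i → (g : Matrix (Fin 3) (Fin 3) F) i j = 0 := by
  constructor
  · intro h i j hij
    exact h hij
  · intro h i j hij
    exact h i j hij

theorem diag_mul {a b : Matrix (Fin 3) (Fin 3) F} (ha : ∀ i j : Fin 3, j < i → a i j = 0)
    (hb : ∀ i j : Fin 3, j < i → b i j = 0) (i : Fin 3) : (a * b) i i = a i i * b i i := by
  rw [Matrix.mul_apply, Finset.sum_eq_single i]
  · intro k _ hk
    rcases lt_or_gt_of_ne hk with h | h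
    · rw [ha i k h, zero_mul]
    · rw [hb k i h, mul_zero]
  · exact fun h => absurd (Finset.mem_univ _) h

/-- the diagonal entries -/
def dg (i : Fin 3) : upperTriangularGL 3 F →* Fˣ :=
  MonoidHom.toHomUnits
    { toFun := fun b => ((b : GL (Fin 3) F) : Matrix (Fin 3) (Fin 3) F) i i
      map_one' := by
        show ((1 : GL (Fin 3) F) : Matrix (Fin 3) (Fin 3) F) i i = 1
        rw [Units.val_one, Matrix.one_apply_eq]
      map_mul' := fun a b => by
        show (((a : GL (Fin 3) F) * (b : GL (Fin 3) F) : GL (Fin 3) F) : Matrix (Fin 3) (Fin 3) F) i i = _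
        rw [Units.val_mul]
        exact diag_mul (mem_B.1 a.2) (mem_B.1 b.2) i }

theorem coe_dg (i : Fin 3) (b : upperTriangularGL 3 F) :
    ((dg i b : Fˣ) : F) = ((b : GL (Fin 3) F) : Matrix (Fin 3) (Fin 3) F) i i := rfl

/-- the linear characters of the upper triangular group -/
noncomputable def lam (l : Fin 3 → XX F) : upperTriangularGL 3 F →* ℂˣ := ∏ i, (l i).comp (dg i)

theorem lam_apply (l : Fin 3 → XX F) (b : upperTriangularGL 3 F) : lam l b = ∏ i, l i (dg i b) := by
  unfold lam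
  rw [MonoidHom.finsetProd_apply]
  rfl

/-- diagonal matrices -/
def dgl (v : Fin 3 → Fˣ) : GL (Fin 3) F where
  val := Matrix.diagonal fun i => (v i : F)
  inv := Matrix.diagonal fun i => ((v i)⁻¹ : Fˣ)
  val_inv := by
    rw [Matrix.diagonal_mul_diagonal, ← Matrix.diagonal_one]
    congr 1
    funext i
    exact Units.mul_inv (v i)
  inv_val := by
    rw [Matrix.diagonal_mul_diagonal, ← Matrix.diagonal_one]
    congr 1
    funext i
    exact Units.inv_mul (v i)

theorem dgl_apply (v : Fin 3 → Fˣ) (i j : Fin 3) :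
    ((dgl v : GL (Fin 3) F) : Matrix (Fin 3) (Fin 3) F) i j = if i = j then (v i : F) else 0 := by
  show Matrix.diagonal (fun i => (v i : F)) i j = _
  rw [Matrix.diagonal_apply]

theorem dgl_mem (v : Fin 3 → Fˣ) : dgl v ∈ upperTriangularGL 3 F := by
  rw [mem_B]
  intro i j hij
  rw [dgl_apply, if_neg hij.ne']

theorem mul_permGL_apply (σ : Equiv.Perm (Fin 3)) (M : Matrix (Fin 3) (Fin 3) F) (i j : Fin 3) :
    (M * ((permGL F 3 σ : GL (Fin 3) F) : Matrix (Fin 3) (Fin 3) F)) i j = M i (σ j) := by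
  rw [Matrix.mul_apply]
  have h1 : ∀ k, ((permGL F 3 σ : GL (Fin 3) F) : Matrix (Fin 3) (Fin 3) F) k j = if k = σ j then 1 else 0 := by
    intro k
    have h := permGL_mul_apply (F := F) σ (1 : Matrix (Fin 3) (Fin 3) F) k j
    rw [Matrix.mul_one, Matrix.one_apply] at h
    rw [h]
    congr 1
    apply propext
    constructor
    · intro e
      rw [← e]
      simp
    · intro e
      rw [e]
      simp
  simp only [h1, mul_ite, mul_one, mul_zero, Finset.sum_ite_eq', Finset.mem_univ, if_true]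

/-- conjugation by permutation matrices -/
theorem conj_perm (σ : Equiv.Perm (Fin 3)) (g : GL (Fin 3) F) (i j : Fin 3) :
    (((permGL F 3 σ)⁻¹ * g * permGL F 3 σ : GL (Fin 3) F) : Matrix (Fin 3) (Fin 3) F) i j =
      (g : Matrix (Fin 3) (Fin 3) F) (σ i) (σ j) := by
  rw [Units.val_mul, mul_permGL_apply, Units.val_mul, ← map_inv, permGL_mul_apply, inv_inv]

theorem conj_dgl (σ : Equiv.Perm (Fin 3)) (v : Fin 3 → Fˣ) :
    (permGL F 3 σ)⁻¹ * dgl v * permGL F 3 σ = dgl (v ∘ σ) := by
  ext i j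
  rw [conj_perm, dgl_apply, dgl_apply]
  simp only [EmbeddingLike.apply_eq_iff_eq, Function.comp_apply]

theorem agr_BB (l m : Fin 3 → XX F) (σ : Equiv.Perm (Fin 3)) :
    Agr (upperTriangularGL 3 F) (upperTriangularGL 3 F) (lam l) (lam m) (permGL F 3 σ) ↔ l ∘ σ = m := by
  constructor
  · intro h
    funext i
    ext u
    have h1 := h ⟨dgl (Function.update 1 (σ i) u), dgl_mem _⟩ (by
      show (permGL F 3 σ)⁻¹ * dgl _ * permGL F 3 σ ∈ _
      rw [conj_dgl]
      exact dgl_mem _)
    rw [lam_apply, lam_apply] at h1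
    have e1 : ∀ k, (dg k) (⟨dgl (Function.update 1 (σ i) u), dgl_mem _⟩ : upperTriangularGL 3 F) =
        Function.update (1 : Fin 3 → Fˣ) (σ i) u k := by
      intro k
      apply Units.ext
      rw [coe_dg]
      show ((dgl _ : GL (Fin 3) F) : Matrix (Fin 3) (Fin 3) F) k k = _
      rw [dgl_apply, if_pos rfl]
    have e2 : ∀ (k : Fin 3) (h' : _), (dg k) (⟨(permGL F 3 σ)⁻¹ * (⟨dgl (Function.update 1 (σ i) u), dgl_mem _⟩ :
        upperTriangularGL 3 F) * permGL F 3 σ, h'⟩ : upperTriangularGL 3 F) =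
        Function.update (1 : Fin 3 → Fˣ) (σ i) u (σ k) := by
      intro k h'
      apply Units.ext
      rw [coe_dg]
      show (((permGL F 3 σ)⁻¹ * dgl _ * permGL F 3 σ : GL (Fin 3) F) : Matrix (Fin 3) (Fin 3) F) k k = _
      rw [conj_perm, dgl_apply, if_pos rfl]
    rw [Finset.prod_congr rfl fun k _ => congrArg (l k) (e1 k),
      Finset.prod_congr rfl fun k _ => congrArg (m k) (e2 k _)] at h1
    rw [Finset.prod_eq_single (σ i), Finset.prod_eq_single i, Function.update_self] at h1
    · exact congrArg Units.val h1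
    · intro k _ hk
      rw [Function.update_of_ne (fun e => hk (σ.injective e)), Pi.one_apply, map_one]
    · exact fun h => absurd (Finset.mem_univ _) h
    · intro k _ hk
      rw [Function.update_of_ne hk, Pi.one_apply, map_one]
    · exact fun h => absurd (Finset.mem_univ _) h
  · intro h t ht
    rw [lam_apply, lam_apply, ← h]
    have e1 : ∀ i, dg i (⟨(permGL F 3 σ)⁻¹ * t * permGL F 3 σ, ht⟩ : upperTriangularGL 3 F) = dg (σ i) t := by
      intro i
      apply Units.ext
      rw [coe_dg, coe_dg]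
      exact conj_perm σ t.1 i i
    simp only [e1, Function.comp_apply]
    exact (Equiv.prod_comp σ (fun k => (l k) ((dg k) t))).symm

/-- the stabiliser of a plane -/
abbrev PP (F : Type) [Field F] : Subgroup (GL (Fin 3) F) := parabolicGL 3 F ![2, 1, 0]

theorem lab0 : compLabel ![2, 1, 0] = ![0, 0, 1] := by
  funext i
  revert i
  decide

theorem lab1 : compLabel (fun _ : Fin 3 => 1) = ![0, 1, 2] := by
  funext i
  revert i
  decide

theorem mem_PP {g : GL (Fin 3) F} : g ∈ PP F ↔
    (g : Matrix (Fin 3) (Fin 3) F) 2 0 = 0 ∧ (g : Matrix (Fin 3) (Fin 3) F) 2 1 = 0 := by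
  have h0 : g ∈ PP F ↔ (g : Matrix (Fin 3) (Fin 3) F).BlockTriangular (compLabel ![2, 1, 0]) := Iff.rfl
  rw [h0, lab0]
  constructor
  · intro h
    exact ⟨h (by decide), h (by decide)⟩
  · rintro ⟨h1, h2⟩ i j hij
    fin_cases i <;> fin_cases j <;> first | exact h1 | exact h2 | exact absurd hij (by decide)

/-- the last diagonal entry -/
def ld : PP F →* Fˣ :=
  MonoidHom.toHomUnits
    { toFun := fun b => ((b : GL (Fin 3) F) : Matrix (Fin 3) (Fin 3) F) 2 2
      map_one' := by
        show ((1 : GL (Fin 3) F) : Matrix (Fin 3) (Fin 3) F) 2 2 = 1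
        rw [Units.val_one, Matrix.one_apply_eq]
      map_mul' := fun a b => by
        show (((a : GL (Fin 3) F) * (b : GL (Fin 3) F) : GL (Fin 3) F) : Matrix (Fin 3) (Fin 3) F) 2 2 = _
        rw [Units.val_mul, Matrix.mul_apply, Fin.sum_univ_three, (mem_PP.1 a.2).1, (mem_PP.1 a.2).2, zero_mul,
          zero_mul, zero_add, zero_add] }

theorem coe_ld (b : PP F) : ((ld b : Fˣ) : F) = ((b : GL (Fin 3) F) : Matrix (Fin 3) (Fin 3) F) 2 2 := rfl

theorem BP : upperTriangularGL 3 F ≤ PP F := upper_le _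

theorem agr_BP (l : Fin 3 → XX F) (c : XX F) (σ : Equiv.Perm (Fin 3)) :
    Agr (upperTriangularGL 3 F) (PP F) (lam l) (c.comp ld) (permGL F 3 σ) ↔
      ∀ k, l k = if k = σ 2 then c else 1 := by
  constructor
  · intro h k
    ext u
    have h1 := h ⟨dgl (Function.update 1 k u), dgl_mem _⟩ (by
      show (permGL F 3 σ)⁻¹ * dgl _ * permGL F 3 σ ∈ _
      rw [conj_dgl]
      exact BP (dgl_mem _))
    rw [lam_apply] at h1
    have e1 : ∀ j, (dg j) (⟨dgl (Function.update 1 k u), dgl_mem _⟩ : upperTriangularGL 3 F) =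
        Function.update (1 : Fin 3 → Fˣ) k u j := by
      intro j
      apply Units.ext
      rw [coe_dg]
      show ((dgl _ : GL (Fin 3) F) : Matrix (Fin 3) (Fin 3) F) j j = _
      rw [dgl_apply, if_pos rfl]
    have e2 : ∀ (h' : _), ld (⟨(permGL F 3 σ)⁻¹ * (⟨dgl (Function.update 1 k u), dgl_mem _⟩ :
        upperTriangularGL 3 F) * permGL F 3 σ, h'⟩ : PP F) =
        Function.update (1 : Fin 3 → Fˣ) k u (σ 2) := by
      intro h'
      apply Units.ext
      rw [coe_ld]
      show (((permGL F 3 σ)⁻¹ * dgl _ * permGL F 3 σ : GL (Fin 3) F) : Matrix (Fin 3) (Fin 3) F) 2 2 = _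
      rw [conj_perm, dgl_apply, if_pos rfl]
    rw [Finset.prod_congr rfl fun j _ => congrArg (l j) (e1 j), MonoidHom.comp_apply, e2] at h1
    rw [Finset.prod_eq_single k, Function.update_self] at h1
    · rw [h1]
      split_ifs with hk
      · rw [← hk, Function.update_self]
      · rw [Function.update_of_ne (Ne.symm hk), Pi.one_apply, map_one]
        rfl
    · intro j _ hj
      rw [Function.update_of_ne hj, Pi.one_apply, map_one]
    · exact fun h => absurd (Finset.mem_univ _) h
  · intro h t ht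
    rw [lam_apply, Finset.prod_eq_single (σ 2), MonoidHom.comp_apply, h, if_pos rfl]
    · congr 1
      apply Units.ext
      rw [coe_dg, coe_ld]
      exact (conj_perm σ t.1 2 2).symm
    · intro k _ hk
      rw [h, if_neg hk]
      rfl
    · exact fun h => absurd (Finset.mem_univ _) h

theorem agr_PP (c : XX F) (σ : Equiv.Perm (Fin 3)) :
    Agr (PP F) (PP F) (c.comp ld) (c.comp ld) (permGL F 3 σ) ↔ (σ 2 = 2 ∨ c = 1) := by
  constructor
  · intro h
    by_contra hcon
    push Not at hcon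
    apply hcon.2
    ext u
    have h1 := h ⟨dgl (Function.update 1 2 u), BP (dgl_mem _)⟩ (by
      show (permGL F 3 σ)⁻¹ * dgl _ * permGL F 3 σ ∈ _
      rw [conj_dgl]
      exact BP (dgl_mem _))
    have e1 : ld (⟨dgl (Function.update 1 2 u), BP (dgl_mem _)⟩ : PP F) = u := by
      apply Units.ext
      rw [coe_ld]
      show ((dgl _ : GL (Fin 3) F) : Matrix (Fin 3) (Fin 3) F) 2 2 = _
      rw [dgl_apply, if_pos rfl, Function.update_self]
    have e2 : ∀ (h' : _), ld (⟨(permGL F 3 σ)⁻¹ * (⟨dgl (Function.update 1 2 u), BP (dgl_mem _)⟩ :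
        PP F) * permGL F 3 σ, h'⟩ : PP F) = 1 := by
      intro h'
      apply Units.ext
      rw [coe_ld]
      show (((permGL F 3 σ)⁻¹ * dgl _ * permGL F 3 σ : GL (Fin 3) F) : Matrix (Fin 3) (Fin 3) F) 2 2 = _
      rw [conj_perm, dgl_apply, if_pos rfl, Function.update_of_ne hcon.1]
      rfl
    rw [MonoidHom.comp_apply, MonoidHom.comp_apply, e1, e2, map_one] at h1
    rw [h1]
    rfl
  · rintro (h | rfl) t ht
    · rw [MonoidHom.comp_apply, MonoidHom.comp_apply]
      congr 1
      apply Units.ext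
      rw [coe_ld, coe_ld]
      have h1 := conj_perm σ t.1 2 2
      rw [h] at h1
      exact h1.symm
    · rfl

end Cfsg.Agent.H809.GL3
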